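import Cfsg.Agent.Lib.SuzLeech.Data
import Cfsg.Agent.Lib.SuzInv.Rep
import Cfsg.Agent.Lib.PermComp.OutP.CentStr
import Cfsg.Agent.Lib.Leech.C1iGp
import Cfsg.Agent.Lib.J2Ico.Centr
import Cfsg.Agent.Lib.Classical.HermBridge

/-!
# The centralizer of an involution with an extraspecial normal subgroup of order `2 ^ 7`,
from tables
-/

set_option autoImplicit false
set_option maxRecDepth 100000
set_option linter.unusedSectionVars false
set_option linter.unusedVariables false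

noncomputable section

namespace Cfsg.Agent.Lib.SuzLeech

open Cfsg Matrix Cfsg.Agent.Lib.SuzInv.Defs Cfsg.Agent.Lib.SuzInv.Rep
open Cfsg.Agent.Lib.PermComp.OutP Cfsg.Agent.Lib.Golay.OutAbs

/-! ### The action on the vector space -/

section QMod

variable {G : Type*} [Group G]

/-- The module `Q / ⟨z⟩`. -/
structure QMod (z : G) (Q' : Subgroup G) where
  pi : G → V
  sec : V → G
  sec_mem : ∀ v, sec v ∈ Q'
  pi_sec : ∀ v, pi (sec v) = v
  pi_mul : ∀ x ∈ Q', ∀ y ∈ Q', pi (x * y) = pi x + pi y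
  pi_z : pi z = 0
  decomp : ∀ x ∈ Q', x = sec (pi x) ∨ x = sec (pi x) * z
  sq : ∀ x ∈ Q', x * x = pw z (qV (pi x))
  zQ : z ∈ Q'
  z1 : z ≠ 1
  zz : z * z = 1
  Qc : ∀ x ∈ Q', x * z = z * x
  Qn : ∀ c, c * z = z * c → ∀ x ∈ Q', c * x * c⁻¹ ∈ Q'

namespace QMod

variable {z : G} {Q' : Subgroup G} (M : QMod z Q')

/-- The action of `c`. -/
def A (c : G) (v : V) : V := M.pi (c * M.sec v * c⁻¹)

lemma conj_z {c : G} (hc : c * z = z * c) : c * z * c⁻¹ = z := by
  rw [hc]; group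

lemma A_spec {c x : G} (hc : c * z = z * c) (hx : x ∈ Q') : M.pi (c * x * c⁻¹) = M.A c (M.pi x) := by
  unfold A
  have hm := M.sec_mem (M.pi x)
  rcases M.decomp x hx with h | h
  · rw [← h]
  · generalize M.sec (M.pi x) = s at h hm ⊢
    have e : c * x * c⁻¹ = (c * s * c⁻¹) * z := by
      calc c * x * c⁻¹ = (c * s * c⁻¹) * (c * z * c⁻¹) := by rw [h]; group
        _ = _ := by rw [conj_z hc]
    rw [e, M.pi_mul _ (M.Qn c hc _ hm) _ M.zQ, M.pi_z, add_zero]

lemma A_add {c : G} (hc : c * z = z * c) (u v : V) : M.A c (u + v) = M.A c u + M.A c v := by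
  have h := M.A_spec hc (Q'.mul_mem (M.sec_mem u) (M.sec_mem v))
  rw [M.pi_mul _ (M.sec_mem u) _ (M.sec_mem v), M.pi_sec, M.pi_sec] at h
  rw [← h]
  have e : c * (M.sec u * M.sec v) * c⁻¹ = (c * M.sec u * c⁻¹) * (c * M.sec v * c⁻¹) := by group
  rw [e, M.pi_mul _ (M.Qn c hc _ (M.sec_mem u)) _ (M.Qn c hc _ (M.sec_mem v))]
  rfl

lemma A_q {c : G} (hc : c * z = z * c) (v : V) : qV (M.A c v) = qV v := by
  have hm := M.Qn c hc _ (M.sec_mem v)
  have h1 := M.sq _ hm
  have h2 := M.sq _ (M.sec_mem v)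
  rw [M.pi_sec] at h2
  apply pw_inj M.z1
  show pw z (qV (M.pi (c * M.sec v * c⁻¹))) = _
  rw [← h1, ← pw_conj hc (qV v), ← h2]
  group

lemma A_mul {c d : G} (hc : c * z = z * c) (hd : d * z = z * d) (v : V) :
    M.A (c * d) v = M.A c (M.A d v) := by
  have h := M.A_spec hc (M.Qn d hd _ (M.sec_mem v))
  show M.pi (c * d * M.sec v * (c * d)⁻¹) = _
  have e : c * d * M.sec v * (c * d)⁻¹ = c * (d * M.sec v * d⁻¹) * c⁻¹ := by group
  rw [e, h]
  rfl

lemma A_one (v : V) : M.A 1 v = v := by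
  show M.pi (1 * M.sec v * 1⁻¹) = v
  simp [M.pi_sec]

lemma pi_one : M.pi 1 = 0 := by
  have h := M.pi_mul 1 Q'.one_mem 1 Q'.one_mem
  rw [mul_one] at h
  exact left_eq_add.1 h

lemma A_of_mem {c : G} (hc : c ∈ Q') (v : V) : M.A c v = v := by
  show M.pi (c * M.sec v * c⁻¹) = v
  rw [M.pi_mul _ (Q'.mul_mem hc (M.sec_mem v)) _ (Q'.inv_mem hc), M.pi_mul _ hc _ (M.sec_mem v), M.pi_sec]
  have h : M.pi c + M.pi c⁻¹ = 0 := by
    rw [← M.pi_mul _ hc _ (Q'.inv_mem hc), mul_inv_cancel, M.pi_one]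
  calc M.pi c + v + M.pi c⁻¹ = (M.pi c + M.pi c⁻¹) + v := by abel
    _ = v := by rw [h, zero_add]

/-- The centralizer. -/
abbrev CC (z : G) : Subgroup G := Subgroup.centralizer ({z} : Set G)

lemma cc_comm (c : CC z) : (c : G) * z = z * c :=
  (Subgroup.mem_centralizer_iff.1 c.2 z rfl).symm

/-- The linear map attached to `c`. -/
def lin (c : CC z) : V →ₗ[ZMod 2] V :=
  (AddMonoidHom.mk' (M.A c) (M.A_add (cc_comm c))).toZModLinearMap 2

/-- The matrix attached to `c`. -/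
def mat (c : CC z) : Matrix Idx Idx (ZMod 2) := LinearMap.toMatrix' (M.lin c)

lemma mat_mulVec (c : CC z) (v : V) : M.mat c *ᵥ v = M.A c v := by
  rw [mat, LinearMap.toMatrix'_mulVec]
  rfl

/-- The matrices as a homomorphism. -/
def matHom : CC z →* Matrix Idx Idx (ZMod 2) where
  toFun := M.mat
  map_one' := by
    apply Matrix.ext_of_mulVec_single
    intro i
    rw [M.mat_mulVec, Matrix.one_mulVec]
    exact M.A_one _
  map_mul' c d := by
    apply Matrix.ext_of_mulVec_single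
    intro i
    rw [← Matrix.mulVec_mulVec, M.mat_mulVec, M.mat_mulVec, M.mat_mulVec]
    exact M.A_mul (cc_comm c) (cc_comm d) _

/-- The representation. -/
def psi : CC z →* OO :=
  (M.matHom.toHomUnits).codRestrict (isometryGroup (ZMod 2) qV) (fun c u v => by
    show qV (M.mat c *ᵥ u) = qV u
    rw [M.mat_mulVec, M.A_q (cc_comm c)])

lemma psi_mulVec (c : CC z) (v : V) :
    (((M.psi c : OO) : GL Idx (ZMod 2)) : Matrix Idx Idx (ZMod 2)) *ᵥ v = M.A c v :=
  M.mat_mulVec c v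

lemma psi_eq_one_of (c : CC z) (h : ∀ v, M.A c v = v) : M.psi c = 1 := by
  apply Subtype.ext
  apply Units.ext
  apply Matrix.ext_of_mulVec_single
  intro i
  have h1 := M.psi_mulVec c (Pi.single i 1)
  rw [h] at h1
  rw [h1]
  show Pi.single i 1 = (1 : Matrix Idx Idx (ZMod 2)) *ᵥ Pi.single i 1
  rw [Matrix.one_mulVec]

end QMod

end QMod

/-! ### The permutation action of the isometries -/

/-- The permutation of the vectors of an isometry. -/
def toPerm (g : OO) : Equiv.Perm V where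
  toFun v := ((g : GL Idx (ZMod 2)) : Matrix Idx Idx (ZMod 2)) *ᵥ v
  invFun v := (((g⁻¹ : OO) : GL Idx (ZMod 2)) : Matrix Idx Idx (ZMod 2)) *ᵥ v
  left_inv v := by
    change _ *ᵥ (_ *ᵥ v) = v
    rw [Matrix.mulVec_mulVec]
    have : (((g⁻¹ : OO) : GL Idx (ZMod 2)) : Matrix Idx Idx (ZMod 2)) * ((g : GL Idx (ZMod 2)) : Matrix Idx Idx (ZMod 2)) = 1 := by
      rw [← Units.val_mul, ← Subgroup.coe_mul, inv_mul_cancel]
      rfl
    rw [this, Matrix.one_mulVec]
  right_inv v := by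
    change _ *ᵥ (_ *ᵥ v) = v
    rw [Matrix.mulVec_mulVec]
    have : ((g : GL Idx (ZMod 2)) : Matrix Idx Idx (ZMod 2)) * (((g⁻¹ : OO) : GL Idx (ZMod 2)) : Matrix Idx Idx (ZMod 2)) = 1 := by
      rw [← Units.val_mul, ← Subgroup.coe_mul, mul_inv_cancel]
      rfl
    rw [this, Matrix.one_mulVec]

/-- The permutation action as a homomorphism. -/
def Th : OO →* Equiv.Perm V where
  toFun := toPerm
  map_one' := by
    refine Equiv.ext fun v => ?_
    show (((1 : OO) : GL Idx (ZMod 2)) : Matrix Idx Idx (ZMod 2)) *ᵥ v = v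
    show (1 : Matrix Idx Idx (ZMod 2)) *ᵥ v = v
    rw [Matrix.one_mulVec]
  map_mul' g h := by
    refine Equiv.ext fun v => ?_
    show ((((g * h : OO)) : GL Idx (ZMod 2)) : Matrix Idx Idx (ZMod 2)) *ᵥ v = _
    rw [Subgroup.coe_mul, Units.val_mul, ← Matrix.mulVec_mulVec]
    rfl

theorem Th_injective : Function.Injective Th := by
  intro g h e
  apply Subtype.ext
  apply Units.ext
  apply Matrix.ext_of_mulVec_single
  intro i
  exact congrArg (fun f : Equiv.Perm V => f (Pi.single i 1)) e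

/-! ### Facts on the form -/

/-- `Ω` is simple. -/
theorem simple_Omega : IsSimpleGroup ↥(commutator OO) := by
  classical
  obtain ⟨K, _, _, hK⟩ : ∃ (K : Type) (_ : Field K) (_ : Fintype K), Fintype.card K = 4 := by
    haveI : Fact (Nat.Prime 2) := ⟨Nat.prime_two⟩
    have hc : Nat.card (GaloisField 2 2) = 2 ^ 2 := GaloisField.card 2 2 (by norm_num)
    haveI : Finite (GaloisField 2 2) := Nat.finite_of_card_ne_zero (by rw [hc]; norm_num)
    letI : Fintype (GaloisField 2 2) := Fintype.ofFinite _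
    refine ⟨GaloisField 2 2, inferInstance, inferInstance, ?_⟩
    rw [← Nat.card_eq_fintype_card, hc]
    norm_num
  obtain ⟨e⟩ := Cfsg.Agent.S0303.result (F := ZMod 2) (K := K) (q := 2) (by simp [ZMod.card])
    (by rw [hK]; norm_num) 1 1 Cfsg.Agent.Lib.ThreeT.O6Aut.hab_two
  have hF : Fintype.card K = 2 ^ 2 := by rw [hK]; norm_num
  haveI hs : IsSimpleGroup (PSU 4 K 2) :=
    Cfsg.Agent.Lib.Classical.HermBridge.isSimpleGroup_PSU hF 4 (by norm_num) (by norm_num)
  have h2 : Nat.card (PSU 4 K 2) = 25920 := by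
    have h3 := Cfsg.Agent.Lib.Classical.HermOrders.card_PSU hF 4 (by norm_num)
    have e1 : (2 ^ (4 * (4 - 1) / 2) * ∏ i ∈ Finset.range 4,
      (if Even i then 2 ^ (i + 1) + 1 else 2 ^ (i + 1) - 1) : ℕ) = 77760 := by decide +kernel
    have e2 : Nat.gcd 4 (2 + 1) = 1 := by norm_num
    rw [e1, e2] at h3
    omega
  set Ω := commutator OO with hΩ
  have hc1 : Nat.card Ω = 25920 * Nat.card (Subgroup.center Ω) := by
    rw [Subgroup.card_eq_card_quotient_mul_card_subgroup (Subgroup.center Ω), ← h2,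
      ← Nat.card_congr e.toEquiv]
  have hcO : Nat.card Ω = 25920 := card_Omega
  rw [hcO] at hc1
  have hcenter : Subgroup.center Ω = ⊥ := by
    apply Subgroup.eq_bot_of_card_eq
    omega
  haveI hs2 : IsSimpleGroup (Ω ⧸ Subgroup.center Ω) := e.isSimpleGroup
  let f : Ω ≃* Ω ⧸ Subgroup.center Ω :=
    (QuotientGroup.quotientBot (G := Ω)).symm.trans (QuotientGroup.quotientMulEquivOfEq hcenter.symm)
  exact f.isSimpleGroup

/-! ### The main abstract theorem -/

section Main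

variable {G : Type*} [Group G] [Finite G]

theorem main_abs {z : G} {Q' : Subgroup G} (M : QMod z Q') (hcQ : Nat.card Q' = 128)
    (hex : IsExtraspecial 2 Q') (hcC : Nat.card (Subgroup.centralizer ({z} : Set G)) = 3317760)
    (hY : 25920 ≤ Nat.card M.psi.range) (g : G) (hg1 : g * z * g⁻¹ ∈ Q') (hg2 : g * z * g⁻¹ ≠ z) :
    orderOf z = 2 ∧ ∃ (Q : Subgroup (Subgroup.centralizer ({z} : Set G))) (_ : Q.Normal),
      Cfsg.generalizedFittingSubgroup (Subgroup.centralizer ({z} : Set G)) = Q ∧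
      Cfsg.IsExtraspecial 2 Q ∧ Nat.card Q = 2 ^ 7 ∧
      Nonempty ((Subgroup.centralizer ({z} : Set G)) ⧸ Q ≃*
        Cfsg.Omega (ZMod 2) (Cfsg.quadFormMinus 2 (ZMod 2) 1 1)) ∧
      ∃ g : G, (∃ hq : g * z * g⁻¹ ∈ Subgroup.centralizer ({z} : Set G),
        (⟨g * z * g⁻¹, hq⟩ : Subgroup.centralizer ({z} : Set G)) ∈ Q) ∧ g * z * g⁻¹ ≠ z := by
  have h2prime := Fact.mk Nat.prime_two
  set C := Subgroup.centralizer ({z} : Set G) with hC
  have hleC : Q' ≤ C := by
    intro x hx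
    rw [hC, Subgroup.mem_centralizer_iff]
    rintro _ rfl
    exact (M.Qc x hx).symm
  let ρ : C →* OO := M.psi
  have hker : Q'.subgroupOf C ≤ ρ.ker := by
    intro x hx
    rw [Subgroup.mem_subgroupOf] at hx
    rw [MonoidHom.mem_ker]
    exact M.psi_eq_one_of x (fun v => M.A_of_mem hx v)
  have hf0 : Q'.subgroupOf C ≃* Q' := Subgroup.subgroupOfEquivOfLe hleC
  have hc0 : Nat.card (Q'.subgroupOf C) = 128 := by rw [Nat.card_congr hf0.toEquiv, hcQ]
  have hk1 : 128 ≤ Nat.card ρ.ker := by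
    rw [← hc0]
    exact Subgroup.card_le_of_le hker
  let eq1 : (C ⧸ ρ.ker) ≃* ρ.range := QuotientGroup.quotientKerEquivRange ρ
  have hprod : Nat.card C = Nat.card ρ.range * Nat.card ρ.ker := by
    rw [Subgroup.card_eq_card_quotient_mul_card_subgroup ρ.ker, Nat.card_congr eq1.toEquiv]
  rw [hcC] at hprod
  have hY' : 25920 ≤ Nat.card ρ.range := hY
  have hk2 : Nat.card ρ.ker = 128 := by
    by_contra hne
    have h1 : 129 ≤ Nat.card ρ.ker := by omega
    have := Nat.mul_le_mul hY' h1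
    omega
  have hr2 : Nat.card ρ.range = 25920 := by
    rw [hk2] at hprod
    omega
  have heqQ : Q'.subgroupOf C = ρ.ker := by
    apply Subgroup.eq_of_le_of_card_ge hker
    rw [hk2, hc0]
  -- the range
  have hrange : ρ.range = commutator OO := by
    have hidx : ρ.range.index = 2 := by
      have h1 := Subgroup.card_mul_index ρ.range
      rw [hr2, card_OO] at h1
      omega
    have hle := Cfsg.Agent.Lib.OrthRefl.IndexTwo.commutator_le_of_index_two ρ.range hidx
    symm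
    apply Subgroup.eq_of_le_of_card_ge hle
    rw [hr2, card_Omega]
  let eq2 : (C ⧸ ρ.ker) ≃* ↥(commutator OO) := eq1.trans (MulEquiv.subgroupCongr hrange)
  have hfin : Finite C := inferInstance
  have hs : IsSimpleGroup (C ⧸ ρ.ker) := by
    haveI := simple_Omega
    exact eq2.isSimpleGroup
  have hns : ¬ IsPGroup 2 (C ⧸ ρ.ker) := by
    intro h
    obtain ⟨n, hn⟩ := IsPGroup.iff_card.1 h
    rw [Nat.card_congr eq2.toEquiv, card_Omega] at hn
    have h3 : 3 ∣ 2 ^ n := by rw [← hn]; norm_num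
    have := Nat.Prime.dvd_of_dvd_pow Nat.prime_three h3
    omega
  have hp : IsPGroup 2 ρ.ker := by
    apply IsPGroup.of_card (n := 7)
    rw [hk2]
    norm_num
  have hcent : Subgroup.centralizer ((ρ.ker : Subgroup C) : Set C) ≤ ρ.ker := by
    intro x hx
    rw [MonoidHom.mem_ker]
    apply M.psi_eq_one_of x
    intro v
    show M.pi (x.1 * M.sec v * (x.1)⁻¹) = v
    have hmem : (⟨M.sec v, hleC (M.sec_mem v)⟩ : C) ∈ ρ.ker := hker (by
      rw [Subgroup.mem_subgroupOf]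
      exact M.sec_mem v)
    have h1 := Subgroup.mem_centralizer_iff.1 hx _ hmem
    have h2 : M.sec v * x.1 = x.1 * M.sec v := congrArg Subtype.val h1
    rw [← h2, mul_inv_cancel_right, M.pi_sec]
  have hfQ : ρ.ker ≃* Q' := (MulEquiv.subgroupCongr heqQ.symm).trans (Subgroup.subgroupOfEquivOfLe hleC)
  refine ⟨?_, ρ.ker, inferInstance, ?_, ?_, ?_, ?_, ?_⟩
  · apply orderOf_eq_prime
    · rw [pow_two]
      exact M.zz
    · exact M.z1
  · exact Cfsg.Agent.Lib.Leech.C1iGp.gfit_of_simple_quot ρ.ker hp hs hns hcent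
  · exact Cfsg.Agent.Lib.J2Ico.Q8.extraspecial_congr hfQ.symm hex
  · rw [hk2]
    norm_num
  · exact ⟨eq2⟩
  · refine ⟨g, ⟨hleC hg1, ?_⟩, hg2⟩
    apply hker
    rw [Subgroup.mem_subgroupOf]
    exact hg1

end Main

end Cfsg.Agent.Lib.SuzLeech

end
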