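import Cfsg.Agent.Lib.SuzLeech.CoCheck
import Cfsg.Agent.Lib.Leech.CertBase
import Cfsg.Agent.Lib.Leech.OutCo1Base
import Cfsg.Agent.Lib.Leech.Center

/-!
# The order of the centralizer of an element of order three in `Co0`

A stabilizer chain on the minimal vectors: the first base vector has at most `196560` images, the
others lie in the list of `4600` vectors with inner product `16` with the first one.
-/

set_option autoImplicit false
set_option maxRecDepth 100000
set_option linter.unusedSectionVars false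

noncomputable section

namespace Cfsg.Agent.Lib.SuzLeech.Co

open Cfsg Cfsg.Agent.Lib.Golay.Core Cfsg.Agent.Lib.Golay.Perm Cfsg.Agent.Lib.Leech.Lat
  Cfsg.Agent.Lib.Leech.Vec Cfsg.Agent.Lib.Leech.Word Cfsg.Agent.Lib.Leech.Cert
  Cfsg.Agent.Lib.Leech.CertData Cfsg.Agent.Lib.Leech.CertBase Cfsg.Agent.Lib.Leech.Count
  Cfsg.Agent.Lib.Leech.ZBasis

/-! ### Vectors -/

/-- A packed vector as a lattice vector. -/
def vc (n : ℕ) : L := if h : inL n = true then ⟨dec n, mem_of_inL h⟩ else 0

theorem vc_val {n : ℕ} (h : inL n = true) : (vc n).1 = dec n := by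
  simp [vc, h]

theorem vc_eq {n : ℕ} (h : inL n = true) : vc n = ⟨dec n, mem_of_inL h⟩ := by
  simp [vc, h]

theorem eq_vc {y : L} {n : ℕ} (h : y.1 = dec n) : y = vc n := by
  have hn : inL n = true := inL_of_mem (h ▸ y.2)
  exact Subtype.ext (by rw [vc_val hn, h])

/-! ### The centralizer -/

/-- The element of order three. -/
def aG : Co0 := wG aW

/-- The centralizer of the element of order three. -/
def KK : Subgroup Co0 := Subgroup.centralizer {aG}

theorem mem_KK {g : Co0} : g ∈ KK ↔ aG * g = g * aG := by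
  unfold KK
  rw [Subgroup.mem_centralizer_iff]
  constructor
  · intro h
    exact h aG rfl
  · rintro h _ rfl
    exact h

theorem comm_smul {g : Co0} (hg : g ∈ KK) (v : L) : g • (aG • v) = aG • (g • v) := by
  rw [← mul_smul, ← mul_smul, mem_KK.1 hg]

theorem aG_n0 {j : ℕ} (hj : j < 12) : aG • vc (n0 j) = vc (n1 j) := by
  obtain ⟨h1, h2, -, h4⟩ := np_ok j (List.mem_range.2 hj)
  apply Subtype.ext
  rw [vc_val h2, vc_eq h1]
  exact wG_smul aW h4 (mem_of_inL h1)

theorem aG_ne_one : aG ≠ 1 := by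
  intro h
  have h1 := aG_n0 (j := 0) (by norm_num)
  rw [h, one_smul] at h1
  have hin := np_ok 0 (by simp)
  have h2 : dec (n0 0) = dec (n1 0) := by
    rw [← vc_val hin.1, ← vc_val hin.2.1, h1]
  exact n01_lt.2.2 (dec_inj n01_lt.1 n01_lt.2.1 h2)

/-! ### The stabilizer chain -/

/-- The pointwise stabilizers in the centralizer. -/
def St : ℕ → Subgroup Co0
  | 0 => KK
  | l + 1 => St l ⊓ MulAction.stabilizer Co0 (vc (n0 l))

theorem mem_St {l : ℕ} {g : Co0} : g ∈ St l ↔ g ∈ KK ∧ ∀ j < l, g • vc (n0 j) = vc (n0 j) := by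
  induction l with
  | zero => simp [St]
  | succ l ih =>
    simp only [St, Subgroup.mem_inf, ih, MulAction.mem_stabilizer_iff]
    constructor
    · rintro ⟨⟨h1, h2⟩, h3⟩
      refine ⟨h1, fun j hj => ?_⟩
      rcases Nat.lt_succ_iff_lt_or_eq.1 hj with h | rfl
      · exact h2 j h
      · exact h3
    · rintro ⟨h1, h2⟩
      exact ⟨⟨h1, fun j hj => h2 j (by omega)⟩, h2 l (by omega)⟩

theorem fix_n1 {g : Co0} (hg : g ∈ KK) {j : ℕ} (hj : j < 12) (h : g • vc (n0 j) = vc (n0 j)) :
    g • vc (n1 j) = vc (n1 j) := by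
  rw [← aG_n0 hj, comm_smul hg, h]

theorem step_level {l : ℕ} (hl : 1 ≤ l) (hl' : l < 12) {g : Co0} (hg : g ∈ St l) :
    ∃ m ∈ (unionL L16).filter (fun x => condsB (cT.getD l []) x = true), (g • vc (n0 l)).1 = dec m := by
  obtain ⟨hK, hf⟩ := mem_St.1 hg
  obtain ⟨h1, h2⟩ := c_ok l (List.mem_range.2 hl')
  obtain ⟨h0, -, h3, -⟩ := np_ok l (List.mem_range.2 hl')
  have hfix : ∀ c ∈ cT.getD l [], inL c.1 = true ∧ g • vc c.1 = vc c.1 := by
    intro c hc
    obtain ⟨j, hj, e⟩ := h1 c hc
    have hj' := List.mem_range.1 hj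
    obtain ⟨hn0, hn1, -, -⟩ := np_ok j (List.mem_range.2 (show j < 12 by omega))
    rcases e with e | e
    · rw [e]
      exact ⟨hn0, hf j hj'⟩
    · rw [e]
      exact ⟨hn1, fix_n1 hK (by omega) (hf j hj')⟩
  have hdot : ∀ c ∈ cT.getD l [], dotInt (g • vc (n0 l)).1 (dec c.1) = (c.2.1 : ℤ) - c.2.2 := by
    intro c hc
    obtain ⟨hc1, hc2⟩ := hfix c hc
    rw [← vc_val hc1, ← hc2, smul_dot, vc_val h0, vc_val hc1]
    exact dotIs_iff.1 (List.all_eq_true.1 h2 c hc)
  have hcl : Cl 32 [(nV1, 16, 0)] (g • vc (n0 l)).1 := by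
    refine ⟨(g • vc (n0 l)).2, ?_, ?_⟩
    · rw [smul_sqNorm, vc_val h0]
      have := dotIs_iff.1 h3
      rw [dotInt_self] at this
      simpa using this
    · intro c hc
      rw [List.mem_singleton] at hc
      subst hc
      exact hdot _ (c_nV1 l (List.mem_range.2 hl') hl)
  obtain ⟨x, hx, e⟩ := mem_U16_of hcl
  refine ⟨x, Finset.mem_filter.2 ⟨hx, ?_⟩, e.symm⟩
  refine List.all_eq_true.2 fun c hc => ?_
  apply dotIs_iff.2
  rw [e]
  exact hdot c hc

instance finite_Co0 : Finite Co0 :=
  Nat.finite_of_card_ne_zero (by rw [Cfsg.Agent.Lib.Leech.Order.card_Co0]; norm_num)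

theorem card_step {G X : Type*} [Group G] [MulAction G X] [Finite G] (S : Subgroup G) (x : X) (T : Set X)
    (hT : T.Finite) (h : ∀ g ∈ S, g • x ∈ T) :
    Nat.card S ≤ T.ncard * Nat.card ↥(S ⊓ MulAction.stabilizer G x) := by
  have h1 := Subgroup.card_mul_index (MulAction.stabilizer S x)
  rw [MulAction.index_stabilizer] at h1
  have h2 : (MulAction.orbit S x).ncard ≤ T.ncard := by
    apply Set.ncard_le_ncard _ hT
    rintro _ ⟨g, rfl⟩
    exact h g.1 g.2
  have h3 : Nat.card (MulAction.stabilizer S x) ≤ Nat.card ↥(S ⊓ MulAction.stabilizer G x) := by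
    apply Nat.card_le_card_of_injective
      (fun g => (⟨g.1.1, g.1.2, g.2⟩ : ↥(S ⊓ MulAction.stabilizer G x)))
    intro a b hab
    apply Subtype.ext
    apply Subtype.ext
    exact congrArg (fun y : ↥(S ⊓ MulAction.stabilizer G x) => y.1) hab
  rw [← h1, mul_comm]
  exact Nat.mul_le_mul h2 h3

theorem finite_T (s : Finset ℕ) :
    {y : L | ∃ m ∈ s, y.1 = dec m}.Finite ∧ {y : L | ∃ m ∈ s, y.1 = dec m}.ncard ≤ s.card := by
  classical
  have hsub : {y : L | ∃ m ∈ s, y.1 = dec m} ⊆ ((s.image vc : Finset L) : Set L) := by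
    rintro y ⟨m, hm, e⟩
    simp only [Finset.coe_image, Set.mem_image, Finset.mem_coe]
    exact ⟨m, hm, (eq_vc e).symm⟩
  refine ⟨(Finset.finite_toSet _).subset hsub, ?_⟩
  calc _ ≤ ((s.image vc : Finset L) : Set L).ncard := Set.ncard_le_ncard hsub (Finset.finite_toSet _)
    _ = (s.image vc).card := Set.ncard_coe_finset _
    _ ≤ s.card := Finset.card_image_le

theorem card_St_le {l k : ℕ} (s : Finset ℕ) (hk : s.card = k)
    (h : ∀ g ∈ St l, ∃ m ∈ s, (g • vc (n0 l)).1 = dec m) :
    Nat.card (St l) ≤ k * Nat.card (St (l + 1)) := by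
  have := finite_T s
  have h1 := card_step (St l) (vc (n0 l)) _ this.1 h
  calc _ ≤ _ := h1
    _ ≤ k * Nat.card (St (l + 1)) := by
      apply Nat.mul_le_mul_right
      rw [← hk]
      exact this.2

theorem card_level {l k : ℕ} (hl : 1 ≤ l) (hl' : l < 12)
    (hc : cntL (condsB (cT.getD l [])) L16 = k) : Nat.card (St l) ≤ k * Nat.card (St (l + 1)) := by
  refine card_St_le _ ?_ fun g hg => step_level hl hl' hg
  rw [card_filter_unionL all16 chain16, hc]

/-- The minimal vectors as a subset of the lattice. -/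
def T0 : Set L := {y : L | sqNorm y.1 = 32}

theorem T0_spec : T0.Finite ∧ T0.ncard ≤ 196560 := by
  have hS : {x : GolayPt → ℤ | x ∈ leechLattice ∧ sqNorm x = 32}.Finite := by
    apply Set.finite_of_ncard_ne_zero
    rw [ncard_norm32]
    norm_num
  have hsub : Subtype.val '' T0 ⊆ {x : GolayPt → ℤ | x ∈ leechLattice ∧ sqNorm x = 32} := by
    rintro _ ⟨y, hy, rfl⟩
    exact ⟨y.2, hy⟩
  have hF : (Subtype.val '' T0).Finite := hS.subset hsub
  refine ⟨Set.Finite.of_finite_image hF Subtype.val_injective.injOn, ?_⟩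
  rw [← Set.ncard_image_of_injective T0 Subtype.val_injective, ← ncard_norm32]
  exact Set.ncard_le_ncard hsub hS

theorem card_level0 : Nat.card (St 0) ≤ 196560 * Nat.card (St 1) := by
  have h1 := card_step (St 0) (vc (n0 0)) T0 T0_spec.1 (by
    intro g _
    show sqNorm (g • vc (n0 0)).1 = 32
    obtain ⟨h0, -, h3, -⟩ := np_ok 0 (by simp)
    rw [smul_sqNorm, vc_val h0]
    have := dotIs_iff.1 h3
    rw [dotInt_self] at this
    simpa using this)
  calc _ ≤ _ := h1
    _ ≤ 196560 * Nat.card (St 1) := Nat.mul_le_mul_right _ T0_spec.2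

/-! ### The last stabilizer is trivial -/

theorem list_sum_range (f : ℕ → ℤ) (n : ℕ) : ((List.range n).map f).sum = ∑ i ∈ Finset.range n, f i := by
  induction n with
  | zero => simp
  | succ n ih =>
    rw [List.range_succ, List.map_append, List.sum_append, ih, Finset.sum_range_succ]
    simp

theorem expandP (z : GolayPt → ℤ) {i : ℕ} (hi : i < 24) :
    ∑ l ∈ Finset.range 24, tab pT i l * dotInt z (dec (wN l)) = dD * z (pt i) := by
  unfold dotInt
  simp only [sum_golay, Finset.mul_sum]
  rw [Finset.sum_comm]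
  have h : ∀ q ∈ Finset.range 24, ∑ l ∈ Finset.range 24, tab pT i l * (z (pt q) * dec (wN l) (pt q)) =
      if i = q then dD * z (pt q) else 0 := by
    intro q hq
    have hq' := Finset.mem_range.1 hq
    have h1 := P_table i (List.mem_range.2 hi) q (List.mem_range.2 hq')
    rw [list_sum_range] at h1
    have h2 : ∑ l ∈ Finset.range 24, tab pT i l * (z (pt q) * dec (wN l) (pt q)) =
        z (pt q) * ∑ l ∈ Finset.range 24, tab pT i l * (((img (wN l) q : ℕ) : ℤ) - 16) := by
      rw [Finset.mul_sum]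
      refine Finset.sum_congr rfl fun l _ => ?_
      rw [dec_pt _ hq']
      ring
    rw [h2, h1]
    split_ifs <;> ring
  rw [Finset.sum_congr rfl h, Finset.sum_ite_eq]
  simp [hi]

theorem wN_mem {l : ℕ} (hl : l < 24) : inL (wN l) = true := by
  have hj : l / 2 < 12 := by omega
  obtain ⟨h0, h1, -, -⟩ := np_ok (l / 2) (List.mem_range.2 hj)
  unfold wN
  cases Nat.beq (l % 2) 0 with
  | true => exact h0
  | false => exact h1

theorem eq_one_of_fix {g : Co0} (h : ∀ l < 24, g • vc (wN l) = vc (wN l)) : g = 1 := by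
  apply ext_smul
  intro v
  rw [one_smul]
  apply Subtype.ext
  funext p
  have hz : ∀ l ∈ Finset.range 24, tab pT (idx p) l * dotInt ((g • v : L).1 - v.1) (dec (wN l)) = 0 := by
    intro l hl
    have hl' := Finset.mem_range.1 hl
    have h1 := h l hl'
    have h2 : dotInt (g • v : L).1 (dec (wN l)) = dotInt v.1 (dec (wN l)) := by
      rw [← vc_val (wN_mem hl')]
      nth_rw 1 [← h1]
      exact smul_dot g v _
    rw [dotInt_sub_left, h2, sub_self, mul_zero]
  have h3 := expandP ((g • v : L).1 - v.1) (idx_lt p)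
  rw [Finset.sum_eq_zero hz, pt_idx] at h3
  have h4 : ((g • v : L).1 - v.1) p = 0 := by
    have : dD ≠ 0 := by decide
    exact (mul_eq_zero.1 h3.symm).resolve_left this
  simpa [sub_eq_zero] using h4

theorem St12_trivial {g : Co0} (hg : g ∈ St 12) : g = 1 := by
  obtain ⟨hK, hf⟩ := mem_St.1 hg
  apply eq_one_of_fix
  intro l hl
  have hj : l / 2 < 12 := by omega
  unfold wN
  cases Nat.beq (l % 2) 0 with
  | true => exact hf _ hj
  | false => exact fix_n1 hK hj (hf _ hj)

theorem card_KK_le : Nat.card KK ≤ 2690072985600 := by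
  have h0 := card_level0
  have h1 := card_level (l := 1) (by norm_num) (by norm_num) c1
  have h2 := card_level (l := 2) (by norm_num) (by norm_num) c2
  have h3 := card_level (l := 3) (by norm_num) (by norm_num) c3
  have h4 := card_level (l := 4) (by norm_num) (by norm_num) c4
  have h5 := card_level (l := 5) (by norm_num) (by norm_num) c5
  have h6 := card_level (l := 6) (by norm_num) (by norm_num) c6
  have h7 := card_level (l := 7) (by norm_num) (by norm_num) c7
  have h8 := card_level (l := 8) (by norm_num) (by norm_num) c8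
  have h9 := card_level (l := 9) (by norm_num) (by norm_num) c9
  have h10 := card_level (l := 10) (by norm_num) (by norm_num) c10
  have h11 := card_level (l := 11) (by norm_num) (by norm_num) c11
  have h12 : Nat.card (St 12) = 1 := by
    have : St 12 = ⊥ := (Subgroup.eq_bot_iff_forall _).2 fun g hg => St12_trivial hg
    rw [this]
    simp
  have h13 : Nat.card KK = Nat.card (St 0) := rfl
  simp only [Nat.reduceAdd] at h1 h2 h3 h4 h5 h6 h7 h8 h9 h10 h11
  rw [h12] at h11
  rw [h13]
  omega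

end Cfsg.Agent.Lib.SuzLeech.Co

end
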