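import Cfsg.Agent.Lib.SuzLeech.CoData
import Cfsg.Agent.Lib.Leech.CertBase
import Cfsg.Agent.Lib.Leech.OutCo1Base
import Cfsg.Agent.Lib.Leech.ZBasis

/-!
# The kernel computations for the stabilizer chain

-/

set_option autoImplicit false
set_option maxRecDepth 100000
set_option linter.unusedSectionVars false

noncomputable section

namespace Cfsg.Agent.Lib.SuzLeech.Co

open Cfsg Cfsg.Agent.Lib.Golay.Core Cfsg.Agent.Lib.Golay.Perm Cfsg.Agent.Lib.Leech.Lat
  Cfsg.Agent.Lib.Leech.Vec Cfsg.Agent.Lib.Leech.Word Cfsg.Agent.Lib.Leech.Cert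
  Cfsg.Agent.Lib.Leech.CertData Cfsg.Agent.Lib.Leech.CertBase Cfsg.Agent.Lib.Leech.Count
  Cfsg.Agent.Lib.Leech.ZBasis

/-- The base vectors. -/
def n0 (j : ℕ) : ℕ := (npT.getD j (0, 0)).1

/-- The images of the base vectors. -/
def n1 (j : ℕ) : ℕ := (npT.getD j (0, 0)).2

/-- Base vectors and images in one list. -/
def wN (l : ℕ) : ℕ := cond (Nat.beq (l % 2) 0) (n0 (l / 2)) (n1 (l / 2))

theorem np_ok : ∀ j ∈ List.range 12, inL (n0 j) = true ∧ inL (n1 j) = true ∧ dotIs (n0 j) (n0 j) 32 0 = true ∧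
    runW aW (n0 j) (n1 j) = true := by
  decide +kernel

theorem n0_zero : n0 0 = nV1 := by decide +kernel

theorem c_ok : ∀ l ∈ List.range 12, (∀ c ∈ cT.getD l [], ∃ j ∈ List.range l, c.1 = n0 j ∨ c.1 = n1 j) ∧
    condsB (cT.getD l []) (n0 l) = true := by
  decide +kernel

theorem c_nV1 : ∀ l ∈ List.range 12, 1 ≤ l → (nV1, 16, 0) ∈ cT.getD l [] := by
  decide +kernel

theorem P_table : ∀ i ∈ List.range 24, ∀ q ∈ List.range 24,
    ((List.range 24).map fun l => tab pT i l * (((img (wN l) q : ℕ) : ℤ) - 16)).sum = if i = q then dD else 0 := by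
  decide +kernel

theorem n01_lt : n0 0 < 2 ^ 120 ∧ n1 0 < 2 ^ 120 ∧ n0 0 ≠ n1 0 := by decide +kernel

theorem c1 : cntL (condsB (cT.getD 1 [])) L16 = 891 := by decide +kernel
theorem c2 : cntL (condsB (cT.getD 2 [])) L16 = 40 := by decide +kernel
theorem c3 : cntL (condsB (cT.getD 3 [])) L16 = 3 := by decide +kernel
theorem c4 : cntL (condsB (cT.getD 4 [])) L16 = 32 := by decide +kernel
theorem c5 : cntL (condsB (cT.getD 5 [])) L16 = 2 := by decide +kernel
theorem c6 : cntL (condsB (cT.getD 6 [])) L16 = 2 := by decide +kernel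
theorem c7 : cntL (condsB (cT.getD 7 [])) L16 = 1 := by decide +kernel
theorem c8 : cntL (condsB (cT.getD 8 [])) L16 = 1 := by decide +kernel
theorem c9 : cntL (condsB (cT.getD 9 [])) L16 = 1 := by decide +kernel
theorem c10 : cntL (condsB (cT.getD 10 [])) L16 = 1 := by decide +kernel
theorem c11 : cntL (condsB (cT.getD 11 [])) L16 = 1 := by decide +kernel

end Cfsg.Agent.Lib.SuzLeech.Co

end
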