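import Cfsg.Agent.Lib.SuzLeech.CoData
import Cfsg.Agent.Lib.Leech.OutCo1Base
import Cfsg.Agent.Lib.Schur.Co1M.Engine
import Cfsg.Prelude.Def_Spor_Suz

/-!
# The relators of the Suzuki group in the centralizer of the element of order three

All relators hold up to the element of order three and the central involution.
-/

set_option autoImplicit false
set_option maxRecDepth 100000
set_option maxHeartbeats 0

namespace Cfsg.Agent.Lib.SuzLeech.Co

open Cfsg Cfsg.Agent.Lib.Leech.Word Cfsg.Agent.Lib.Leech.OutCo1Base Cfsg.Agent.Lib.Schur.Co1M.Engine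

/-- The index of a generator. -/
def gI : Spor.Suz.Gen → ℕ
  | .a => 0
  | .b => 1
  | .c => 2
  | .d => 3
  | .e => 4
  | .f => 5
  | .g => 6

/-- The word of a generator. -/
def gW (x : Spor.Suz.Gen) : List (ℕ × ℕ) := gT.getD (gI x) []

/-- The words of the central elements. -/
def zW : ℕ → List (ℕ × ℕ)
  | 0 => []
  | 1 => aW
  | 2 => aW ++ aW
  | 3 => [negOp]
  | 4 => aW ++ [negOp]
  | _ => aW ++ aW ++ [negOp]

/-- All generators. -/
def gensL : List Spor.Suz.Gen := [.a, .b, .c, .d, .e, .f, .g]

theorem mem_gensL (x : Spor.Suz.Gen) : x ∈ gensL := by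
  cases x <;> simp [gensL]

/-- The check of a pair of generators. -/
def chkP (x y : Spor.Suz.Gen) : Bool :=
  (List.range 6).any fun i => eqW (rep (gW y ++ gW x) (Spor.coxLabel Spor.Suz.edges x y)) (zW i)

theorem a3_chk : eqW (rep aW 3) [] = true := by decide +kernel

theorem comm_chk : ∀ x ∈ gensL, eqW (aW ++ gW x) (gW x ++ aW) = true := by decide +kernel

theorem chk_a : ∀ y ∈ gensL, chkP .a y = true := by decide +kernel

theorem chk_b : ∀ y ∈ gensL, chkP .b y = true := by decide +kernel

theorem chk_c : ∀ y ∈ gensL, chkP .c y = true := by decide +kernel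

theorem chk_d : ∀ y ∈ gensL, chkP .d y = true := by decide +kernel

theorem chk_e : ∀ y ∈ gensL, chkP .e y = true := by decide +kernel

theorem chk_f : ∀ y ∈ gensL, chkP .f y = true := by decide +kernel

theorem chk_g : ∀ y ∈ gensL, chkP .g y = true := by decide +kernel

theorem chk_all (x y : Spor.Suz.Gen) : chkP x y = true := by
  cases x
  · exact chk_a y (mem_gensL y)
  · exact chk_b y (mem_gensL y)
  · exact chk_c y (mem_gensL y)
  · exact chk_d y (mem_gensL y)
  · exact chk_e y (mem_gensL y)
  · exact chk_f y (mem_gensL y)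
  · exact chk_g y (mem_gensL y)

theorem e1_chk : (List.range 6).any (fun i => eqW (gW .a) (rep (gW .d ++ gW .c) 4 ++ zW i)) = true := by
  decide +kernel

theorem e2_chk : (List.range 6).any (fun i => eqW (gW .a) (rep (gW .g ++ gW .f) 2 ++ zW i)) = true := by
  decide +kernel

theorem e3_chk : (List.range 6).any (fun i => eqW (rep (gW .f ++ gW .c ++ gW .b ++ gW .a) 5) (zW i)) = true := by
  decide +kernel

theorem e4_chk : (List.range 6).any (fun i => eqW (rep (gW .g ++ gW .f ++ gW .b) 5) (zW i)) = true := by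
  decide +kernel

/-- The word of `b c d c d`. -/
def wB : List (ℕ × ℕ) := gW .d ++ gW .c ++ gW .d ++ gW .c ++ gW .b

theorem e5_chk : (List.range 6).any (fun i => eqW (rep (gW .e ++ rep wB 5) 3) (zW i)) = true := by
  decide +kernel

/-- The base point for the noncommuting check. -/
def nX : ℕ := 857398955446444600982180990621860368

theorem nX_mem : Cfsg.Agent.Lib.Leech.Vec.inL nX = true := by decide +kernel

theorem ncomm_chk : runW (gW .c ++ gW .b) nX (imgW (gW .c ++ gW .b) nX) = true ∧
    runW (gW .b ++ gW .c) nX (imgW (gW .b ++ gW .c) nX) = true ∧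
    imgW (gW .c ++ gW .b) nX ≠ imgW (gW .b ++ gW .c) nX ∧
    imgW (gW .c ++ gW .b) nX < 2 ^ 120 ∧ imgW (gW .b ++ gW .c) nX < 2 ^ 120 := by
  decide +kernel

end Cfsg.Agent.Lib.SuzLeech.Co
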