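import Cfsg.Agent.Lib.SuzLeech.CoChain
import Cfsg.Agent.Lib.SuzLeech.CoRel
import Cfsg.Agent.S1694

/-!
# The centralizer of the element of order three, modulo its central part, is the Suzuki group
-/

set_option autoImplicit false
set_option maxRecDepth 100000
set_option linter.unusedSectionVars false

noncomputable section

namespace Cfsg.Agent.Lib.SuzLeech.Co

open Cfsg Cfsg.Spor Cfsg.Agent.Lib.Golay.Core Cfsg.Agent.Lib.Leech.Lat Cfsg.Agent.Lib.Leech.Center
  Cfsg.Agent.Lib.Leech.Vec Cfsg.Agent.Lib.Leech.Word Cfsg.Agent.Lib.Leech.Cert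
  Cfsg.Agent.Lib.Leech.OutCo1Base Cfsg.Agent.Lib.Schur.Co1M.Engine

theorem aG_pow3 : aG ^ 3 = 1 := by
  have h := wG_eq a3_chk
  rw [wG_rep] at h
  exact h

theorem orderOf_aG : orderOf aG = 3 := by
  haveI : Fact (Nat.Prime 3) := ⟨by norm_num⟩
  exact orderOf_eq_prime aG_pow3 aG_ne_one

/-- The subgroup of order three. -/
def A0 : Subgroup Co0 := Subgroup.zpowers aG

theorem card_A0 : Nat.card A0 = 3 := by
  rw [A0, Nat.card_zpowers, orderOf_aG]

/-- The centralizer of the subgroup. -/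
abbrev K0 : Subgroup Co0 := Subgroup.centralizer (A0 : Set Co0)

theorem mem_K0 {g : Co0} : g ∈ K0 ↔ g ∈ KK := by
  rw [mem_KK, Subgroup.mem_centralizer_iff]
  constructor
  · intro h
    exact h aG (Subgroup.mem_zpowers aG)
  · rintro h _ ⟨k, rfl⟩
    have : Commute aG g := h
    exact (this.zpow_left k).eq

theorem K0_eq : K0 = KK := by
  ext g
  exact mem_K0

/-- The part of the centralizer which is central. -/
abbrev Z0 : Subgroup Co0 := A0 ⊔ Subgroup.center Co0

theorem Z0_comm {z g : Co0} (hz : z ∈ Z0) (hg : g ∈ K0) : z * g = g * z := by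
  have hle : Z0 ≤ Subgroup.centralizer (K0 : Set Co0) := by
    refine sup_le ?_ ?_
    · intro y hy
      rw [Subgroup.mem_centralizer_iff]
      intro h hh
      exact (Subgroup.mem_centralizer_iff.1 hh y hy).symm
    · intro y hy
      rw [Subgroup.mem_centralizer_iff]
      intro h _
      exact (Subgroup.mem_center_iff.1 hy h)
  exact (Subgroup.mem_centralizer_iff.1 (hle hz) g hg).symm

instance normal_Z0 : (Z0.subgroupOf K0).Normal := by
  constructor
  intro n hn g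
  rw [Subgroup.mem_subgroupOf] at hn ⊢
  have h1 : (n : Co0) * g = g * n := Z0_comm hn g.2
  have h2 : ((g * n * g⁻¹ : K0) : Co0) = n := by
    show (g : Co0) * n * (g : Co0)⁻¹ = n
    rw [← h1, mul_inv_cancel_right]
  rw [h2]
  exact hn

theorem A0_le_K0 : A0 ≤ K0 := by
  intro a ha
  rw [Subgroup.mem_centralizer_iff]
  intro h hh
  obtain ⟨k, rfl⟩ := hh
  obtain ⟨l, rfl⟩ := ha
  exact (Commute.refl aG).zpow_zpow k l

theorem Z0_le_K0 : Z0 ≤ K0 := by
  refine sup_le A0_le_K0 ?_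
  intro y hy
  rw [Subgroup.mem_centralizer_iff]
  intro h _
  exact (Subgroup.mem_center_iff.1 hy h)

theorem aG_mem_Z0 : aG ∈ Z0 := Subgroup.mem_sup_left (Subgroup.mem_zpowers aG)

theorem neg_mem_Z0 : wG [negOp] ∈ Z0 := Subgroup.mem_sup_right hneg

theorem zW_mem (i : ℕ) : wG (zW i) ∈ Z0 := by
  have h1 : wG aW ∈ Z0 := aG_mem_Z0
  have h2 : wG (aW ++ aW) ∈ Z0 := by
    rw [wG_append]
    exact Z0.mul_mem h1 h1
  match i with
  | 0 => exact Z0.one_mem
  | 1 => exact h1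
  | 2 => exact h2
  | 3 => exact neg_mem_Z0
  | 4 =>
    show wG (aW ++ [negOp]) ∈ Z0
    rw [wG_append]
    exact Z0.mul_mem neg_mem_Z0 h1
  | n + 5 =>
    show wG (aW ++ aW ++ [negOp]) ∈ Z0
    rw [wG_append]
    exact Z0.mul_mem neg_mem_Z0 h2

/-- The element of a generator. -/
def G (x : Suz.Gen) : Co0 := wG (gW x)

theorem G_mem (x : Suz.Gen) : G x ∈ K0 := by
  rw [mem_K0, mem_KK]
  have h := wG_eq (comm_chk x (mem_gensL x))
  rw [wG_append, wG_append] at h
  exact h.symm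

/-- The element of a generator, in the centralizer. -/
def Gk (x : Suz.Gen) : K0 := ⟨G x, G_mem x⟩

/-- The image of a generator in the quotient. -/
def fQ (x : Suz.Gen) : K0 ⧸ Z0.subgroupOf K0 := QuotientGroup.mk (Gk x)

/-- The word map, in `Co0`. -/
def Fc : FreeGroup Suz.Gen →* Co0 := FreeGroup.lift G

theorem lift_fQ (r : FreeGroup Suz.Gen) : FreeGroup.lift fQ r = 1 ↔ Fc r ∈ Z0 := by
  have h1 : FreeGroup.lift fQ = (QuotientGroup.mk' (Z0.subgroupOf K0)).comp (FreeGroup.lift Gk) := by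
    apply FreeGroup.ext_hom
    intro x
    simp [fQ]
  have h2 : K0.subtype.comp (FreeGroup.lift Gk) = Fc := by
    apply FreeGroup.ext_hom
    intro x
    simp [Fc, Gk]
  have h3 : Fc r = ((FreeGroup.lift Gk r : K0) : Co0) := by
    rw [← h2]
    rfl
  rw [h1, h3, MonoidHom.comp_apply, QuotientGroup.mk'_apply, QuotientGroup.eq_one_iff,
    Subgroup.mem_subgroupOf]

theorem rel_cox (x y : Suz.Gen) : Fc ((FreeGroup.of x * FreeGroup.of y) ^ coxLabel Suz.edges x y) ∈ Z0 := by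
  have h := chk_all x y
  unfold chkP at h
  obtain ⟨i, -, hi⟩ := List.any_eq_true.1 h
  have e := wG_eq hi
  rw [wG_rep, wG_append] at e
  have e2 : Fc ((FreeGroup.of x * FreeGroup.of y) ^ coxLabel Suz.edges x y) =
      (wG (gW x) * wG (gW y)) ^ coxLabel Suz.edges x y := by
    simp [Fc, G]
  rw [e2, e]
  exact zW_mem i

theorem rel_e1 : Fc (Suz.a * ((Suz.c * Suz.d) ^ 4)⁻¹) ∈ Z0 := by
  obtain ⟨i, -, hi⟩ := List.any_eq_true.1 e1_chk
  have e := wG_eq hi
  rw [wG_append, wG_rep, wG_append] at e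
  have e2 : Fc (Suz.a * ((Suz.c * Suz.d) ^ 4)⁻¹) = wG (gW .a) * ((wG (gW .c) * wG (gW .d)) ^ 4)⁻¹ := by
    simp [Fc, G]
  rw [e2, e, mul_inv_cancel_right]
  exact zW_mem i

theorem rel_e2 : Fc (Suz.a * ((Suz.f * Suz.g) ^ 2)⁻¹) ∈ Z0 := by
  obtain ⟨i, -, hi⟩ := List.any_eq_true.1 e2_chk
  have e := wG_eq hi
  rw [wG_append, wG_rep, wG_append] at e
  have e2 : Fc (Suz.a * ((Suz.f * Suz.g) ^ 2)⁻¹) = wG (gW .a) * ((wG (gW .f) * wG (gW .g)) ^ 2)⁻¹ := by
    simp [Fc, G]
  rw [e2, e, mul_inv_cancel_right]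
  exact zW_mem i

theorem rel_e3 : Fc ((Suz.a * Suz.b * Suz.c * Suz.f) ^ 5) ∈ Z0 := by
  obtain ⟨i, -, hi⟩ := List.any_eq_true.1 e3_chk
  have e := wG_eq hi
  rw [wG_rep, wG_append, wG_append, wG_append] at e
  have e2 : Fc ((Suz.a * Suz.b * Suz.c * Suz.f) ^ 5) =
      (wG (gW .a) * (wG (gW .b) * (wG (gW .c) * wG (gW .f)))) ^ 5 := by
    simp [Fc, G, mul_assoc]
  rw [e2, e]
  exact zW_mem i

theorem rel_e4 : Fc ((Suz.b * Suz.f * Suz.g) ^ 5) ∈ Z0 := by
  obtain ⟨i, -, hi⟩ := List.any_eq_true.1 e4_chk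
  have e := wG_eq hi
  rw [wG_rep, wG_append, wG_append] at e
  have e2 : Fc ((Suz.b * Suz.f * Suz.g) ^ 5) = (wG (gW .b) * (wG (gW .f) * wG (gW .g))) ^ 5 := by
    simp [Fc, G, mul_assoc]
  rw [e2, e]
  exact zW_mem i

theorem rel_e5 : Fc (((Suz.b * Suz.c * Suz.d * Suz.c * Suz.d) ^ 5 * Suz.e) ^ 3) ∈ Z0 := by
  obtain ⟨i, -, hi⟩ := List.any_eq_true.1 e5_chk
  have e := wG_eq hi
  rw [wG_rep, wG_append, wG_rep] at e
  have e1 : wG wB = wG (gW .b) * (wG (gW .c) * (wG (gW .d) * (wG (gW .c) * wG (gW .d)))) := by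
    unfold wB
    rw [wG_append, wG_append, wG_append, wG_append]
  have e2 : Fc (((Suz.b * Suz.c * Suz.d * Suz.c * Suz.d) ^ 5 * Suz.e) ^ 3) =
      ((wG wB) ^ 5 * wG (gW .e)) ^ 3 := by
    rw [e1]
    simp [Fc, G, mul_assoc]
  rw [e2, e]
  exact zW_mem i

theorem rel_all : ∀ r ∈ coxRelators Suz.edges ∪ {r | r ∈ Suz.extra}, FreeGroup.lift fQ r = 1 := by
  intro r hr
  rw [lift_fQ]
  rcases hr with ⟨x, -, y, -, rfl⟩ | hr
  · exact rel_cox x y
  · have hr' : r ∈ Suz.extra := hr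
    simp only [Suz.extra, List.mem_cons, List.not_mem_nil, or_false] at hr'
    rcases hr' with rfl | rfl | rfl | rfl | rfl
    · exact rel_e1
    · exact rel_e2
    · exact rel_e3
    · exact rel_e4
    · exact rel_e5

/-- The map from the Suzuki group to the quotient. -/
def phiQ : Suz →* K0 ⧸ Z0.subgroupOf K0 := PresentedGroup.toGroup rel_all

theorem phiQ_of (x : Suz.Gen) : phiQ (PresentedGroup.of x) = fQ x := PresentedGroup.toGroup.of rel_all

theorem G_ncomm : G .b * G .c ≠ G .c * G .b := by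
  intro h
  obtain ⟨h1, h2, h3, h4, h5⟩ := ncomm_chk
  have hx : dec nX ∈ leechLattice := mem_of_inL nX_mem
  have e1 := wG_smul _ h1 hx
  have e2 := wG_smul _ h2 hx
  rw [wG_append] at e1 e2
  have h6 : wG (gW .b) * wG (gW .c) = wG (gW .c) * wG (gW .b) := h
  rw [h6] at e1
  exact h3 (dec_inj h4 h5 (e1.symm.trans e2))

theorem phiQ_injective : Function.Injective phiQ := by
  haveI hs : IsSimpleGroup Suz := Cfsg.Agent.S1694.result.1
  rw [← MonoidHom.ker_eq_bot_iff]
  rcases IsSimpleGroup.eq_bot_or_eq_top_of_normal phiQ.ker inferInstance with h | h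
  · exact h
  · exfalso
    have h1 : (PresentedGroup.of Suz.Gen.b : Suz) ∈ phiQ.ker := by
      rw [h]
      trivial
    rw [MonoidHom.mem_ker, phiQ_of] at h1
    have h2 : (Gk .b) ∈ Z0.subgroupOf K0 := (QuotientGroup.eq_one_iff _).1 h1
    rw [Subgroup.mem_subgroupOf] at h2
    exact G_ncomm (Z0_comm h2 (G_mem .c))

instance finite_K0 : Finite K0 := Subtype.finite

theorem negG_order : orderOf (negG) = 2 := by
  haveI : Fact (Nat.Prime 2) := ⟨by norm_num⟩
  refine orderOf_eq_prime ?_ negG_ne_one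
  rw [sq]
  apply ext_smul
  intro v
  rw [mul_smul, negG_smul', negG_smul', neg_neg, one_smul]

theorem card_Z0_ge : 6 ≤ Nat.card Z0 := by
  have h3 : 3 ∣ Nat.card Z0 := by
    rw [← orderOf_aG]
    exact Subgroup.orderOf_dvd_natCard Z0 aG_mem_Z0
  have h2 : 2 ∣ Nat.card Z0 := by
    rw [← negG_order]
    exact Subgroup.orderOf_dvd_natCard Z0 (Subgroup.mem_sup_right negG_mem_center)
  have h6 : 6 ∣ Nat.card Z0 := by
    have : Nat.Coprime 2 3 := by norm_num
    exact this.mul_dvd_of_dvd_of_dvd h2 h3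
  exact Nat.le_of_dvd Nat.card_pos h6

theorem card_quo_le : Nat.card (K0 ⧸ Z0.subgroupOf K0) ≤ 448345497600 := by
  have h1 := Subgroup.card_eq_card_quotient_mul_card_subgroup (Z0.subgroupOf K0)
  have h2 : Nat.card (Z0.subgroupOf K0) = Nat.card Z0 :=
    Nat.card_congr (Subgroup.subgroupOfEquivOfLe Z0_le_K0).toEquiv
  rw [h2] at h1
  have h3 : Nat.card K0 ≤ 2690072985600 := by
    rw [K0_eq]
    exact card_KK_le
  have h4 := card_Z0_ge
  have h5 : Nat.card (K0 ⧸ Z0.subgroupOf K0) * 6 ≤ Nat.card K0 := by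
    rw [h1]
    exact Nat.mul_le_mul_left _ h4
  omega

theorem phiQ_bijective : Function.Bijective phiQ := by
  have h1 : Nat.card Suz = 448345497600 := Cfsg.Agent.S1694.result.2
  haveI : Finite Suz := Nat.finite_of_card_ne_zero (by rw [h1]; norm_num)
  refine Function.Injective.bijective_of_nat_card_le phiQ_injective ?_
  rw [h1]
  exact card_quo_le

/-- The quotient is the Suzuki group. -/
def quoEquiv : Suz ≃* K0 ⧸ Z0.subgroupOf K0 := MulEquiv.ofBijective phiQ phiQ_bijective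

end Cfsg.Agent.Lib.SuzLeech.Co

end
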