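import Cfsg.Agent.Lib.SuzLeech.Tab
import Cfsg.Agent.Lib.TC.D.SuzChain.Main
import Cfsg.Agent.Lib.PermComp.OutP.Pres
import Cfsg.Agent.Lib.PermComp.OutP.Suz.Thm

/-!
# The centralizer of an involution of the Suzuki group
-/

set_option autoImplicit false
set_option maxRecDepth 100000
set_option maxHeartbeats 0
set_option linter.unusedSectionVars false
set_option linter.unusedVariables false

namespace Cfsg.Agent.Lib.SuzLeech.Hyp

open Cfsg Cfsg.Agent.Lib.PermComp Cfsg.Agent.Lib.PermComp.OutP Cfsg.Agent.Lib.PermComp.OutP.Suz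
  Cfsg.Agent.Lib.Golay.OutAbs Cfsg.Agent.Lib.SuzLeech
open Cfsg.Agent.Lib.PermComp.Core (allL allL_eq_true)
open Cfsg.Agent.Lib.PermComp.Kron (rangeAll)

/-! ### The kernel checks -/

/-- Two words have the same values on the base. -/
noncomputable def chkEq (w w' : List Nat) : Bool :=
  allL (fun b => Nat.beq (wApp F w b) (wApp F w' b)) Bs

theorem W_lt_ck : ∀ i : Fin 128, allL (fun g => Nat.blt g 55) (W i.val) = true := by decide +kernel

theorem W_0 : W 0 = [] := by decide +kernel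
theorem W_64 : W 64 = [1] := by decide +kernel
theorem w0_ck : allL (fun g => Nat.blt g 55) w0 = true := by decide +kernel

theorem gen_ck : ∀ i : Fin 128, allL (fun k : Fin 128 => chkEq (W (mt i k).val) (W i.val ++ W k.val)) gl = true := by
  decide +kernel

theorem cj_lt : ∀ (g : Fin 6) (i : Fin 128), cjN g.val i.val < 128 := by decide +kernel

theorem cj_ck : ∀ (g : Fin 6) (i : Fin 128),
    chkEq ((18 + g.val) :: W i.val) (W (cjN g.val i.val) ++ [18 + g.val]) = true := by
  decide +kernel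

theorem cj_64 : ∀ g : Fin 6, cjN g.val 64 = 64 := by decide +kernel

theorem g0_ck : chkEq (w0 ++ [1]) (W i0.val ++ w0) = true := by decide +kernel

theorem key_ck : ∀ i : Fin 128, Nat.beq (wApp F (W i.val) 0 * (1782 * 1782) + wApp F (W i.val) 1 * 1782 + wApp F (W i.val) 2)
    (KL.getD i.val 0) = true := by
  decide +kernel

theorem key_inj : ∀ i j : Fin 128, KL.getD i.val 0 = KL.getD j.val 0 → i = j := by decide +kernel

theorem cs_range : ∀ d ∈ cs, 18 ≤ d.off ∧ d.off + d.cnt ≤ 24 := by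
  have h : allL (fun d => Bool.and (Nat.ble 18 d.off) (Nat.ble (d.off + d.cnt) 24)) cs = true := by decide +kernel
  intro d hd
  have h1 := (allL_eq_true _ _).1 h d hd
  rw [Bool.and_eq_true] at h1
  exact ⟨Nat.le_of_ble_eq_true h1.1, Nat.le_of_ble_eq_true h1.2⟩

/-! ### The model -/

private noncomputable abbrev pt := Cfsg.Agent.Lib.TC.D.SuzG24.Tab.pt

private theorem ck (H : Subgroup (Equiv.Perm (Fin 1782)))
    (hH : ∀ c < 7, ∃ e ∈ H, ∀ (p : Nat) (hp : p < 1782), pt.T c p = (e ⟨p, hp⟩ : Fin 1782))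
    (j : Nat) (hj : j < 7)
    (h : rangeAll (fun q => Nat.beq (OutP.Suz.F (55 + j) q) (pt.T j q)) 0 1782 = true) :
    Has (n := 1782) OutP.Suz.F H (55 + j) := by
  obtain ⟨e, he, hg⟩ := hH j hj
  refine ⟨e, he, fun p hp => ?_⟩
  have h1 := Nat.eq_of_beq_eq_true (Kron.rangeAll_spec h p (Nat.zero_le _) (by omega))
  rw [h1]
  exact hg p hp

/-- The abstract structure from the model. -/
theorem hyp_of_model {H : Subgroup (Equiv.Perm (Fin 1782))} (e : Cfsg.Spor.Suz ≃* H)
    (hcard : Nat.card H = 448345497600) (hX : ∀ g, 55 ≤ g → g < 62 → Has F H g) :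
    ∃ z : Cfsg.Spor.Suz, orderOf z = 2 ∧
      ∃ (Q : Subgroup (Subgroup.centralizer ({z} : Set Cfsg.Spor.Suz))) (_ : Q.Normal),
        Cfsg.generalizedFittingSubgroup (Subgroup.centralizer ({z} : Set Cfsg.Spor.Suz)) = Q ∧
        Cfsg.IsExtraspecial 2 Q ∧ Nat.card Q = 2 ^ 7 ∧
        Nonempty ((Subgroup.centralizer ({z} : Set Cfsg.Spor.Suz)) ⧸ Q ≃*
          Cfsg.Omega (ZMod 2) (Cfsg.quadFormMinus 2 (ZMod 2) 1 1)) ∧
        ∃ g : Cfsg.Spor.Suz, (∃ hq : g * z * g⁻¹ ∈ Subgroup.centralizer ({z} : Set Cfsg.Spor.Suz),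
          (⟨g * z * g⁻¹, hq⟩ : Subgroup.centralizer ({z} : Set Cfsg.Spor.Suz)) ∈ Q) ∧ g * z * g⁻¹ ≠ z := by
  haveI hfinH : Finite H := Nat.finite_of_card_ne_zero (by rw [hcard]; norm_num)
  haveI hfinG : Finite Cfsg.Spor.Suz := Finite.of_equiv _ e.symm.toEquiv
  obtain ⟨⟨A, hA, rA⟩, ⟨b, hb, rb⟩⟩ := has_gens hX
  obtain ⟨E0, hO⟩ := hC.out hcard hA hb rA rb
  let E : ℕ → Equiv.Perm (Fin 1782) := E0
  have hE : ∀ g < 55, E g ∈ H ∧ Rp (n := 1782) (F g) (E g) := hO.hE
  have hbase : ∀ x ∈ H, ∀ y ∈ H, (∀ b ∈ Bs, ∀ (hb : b < 1782), x ⟨b, hb⟩ = y ⟨b, hb⟩) → x = y := hO.hbase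
  have hWlt : ∀ i : Fin 128, ∀ g ∈ W i.val, g < 55 := fun i g hg =>
    blt_lt ((allL_eq_true _ _).1 (W_lt_ck i) g hg)
  have hw0lt : ∀ g ∈ w0, g < 55 := fun g hg => blt_lt ((allL_eq_true _ _).1 w0_ck g hg)
  -- equality of words
  have hmemw : ∀ {w : List Nat}, (∀ g ∈ w, g < 55) → wEl E w ∈ H := fun h =>
    wEl_mem fun g hg => (hE g (h g hg)).1
  have hrpw : ∀ {w : List Nat}, (∀ g ∈ w, g < 55) → Rp (wApp F w) (wEl E w) := fun h =>
    wApp_spec fun g hg => (hE g (h g hg)).2
  have heq : ∀ {w w' : List Nat}, (∀ g ∈ w, g < 55) → (∀ g ∈ w', g < 55) → chkEq w w' = true →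
      wEl E w = wEl E w' := by
    intro w w' h1 h2 h3
    apply hbase _ (hmemw h1) _ (hmemw h2)
    intro b hb hb'
    apply Fin.ext
    have h4 := (allL_eq_true _ _).1 h3 b hb
    have h5 := Nat.eq_of_beq_eq_true h4
    rw [← hrpw h1 b hb', ← hrpw h2 b hb']
    exact h5
  have happ : ∀ w w' : List Nat, wEl E (w ++ w') = wEl E w * wEl E w' := by
    intro w w'
    simp [wEl, List.prod_append]
  have hsingle : ∀ g : Nat, wEl E [g] = E g := by
    intro g
    simp [wEl]
  have hcons : ∀ (g : Nat) (w : List Nat), wEl E (g :: w) = E g * wEl E w := by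
    intro g w
    simp [wEl]
  -- the elements
  let qG : Fin 128 → Equiv.Perm (Fin 1782) := fun i => wEl E (W i.val)
  have hqH : ∀ i, qG i ∈ H := fun i => hmemw (hWlt i)
  let q : Fin 128 → Cfsg.Spor.Suz := fun i => e.symm ⟨qG i, hqH i⟩
  let VV : Cfsg.Spor.Suz →* Equiv.Perm (Fin 1782) := H.subtype.comp e.toMonoidHom
  have hVinj : Function.Injective VV := Subtype.val_injective.comp e.injective
  have hVpb : ∀ (x : Equiv.Perm (Fin 1782)) (hx : x ∈ H), VV (e.symm ⟨x, hx⟩) = x := by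
    intro x hx
    show ((e (e.symm ⟨x, hx⟩) : H) : Equiv.Perm (Fin 1782)) = x
    rw [e.apply_symm_apply]
  have hVq : ∀ i, VV (q i) = qG i := fun i => hVpb _ _
  have hq64 : qG 64 = E 1 := by
    show wEl E (W 64) = E 1
    rw [W_64, hsingle]
  have ht1 : E 1 ∈ H := (hE 1 (by norm_num)).1
  have hq0 : q 0 = 1 := by
    apply hVinj
    rw [hVq, map_one]
    show wEl E (W 0) = 1
    rw [W_0]
    rfl
  have hinj : Function.Injective q := by
    intro i j h
    have h1 : qG i = qG j := by rw [← hVq, ← hVq, h]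
    apply key_inj
    rw [← Nat.eq_of_beq_eq_true (key_ck i), ← Nat.eq_of_beq_eq_true (key_ck j)]
    have h2 : ∀ (p : Nat) (hp : p < 1782), wApp F (W i.val) p = wApp F (W j.val) p := by
      intro p hp
      rw [hrpw (hWlt i) p hp, hrpw (hWlt j) p hp]
      exact congrArg (fun f : Equiv.Perm (Fin 1782) => ((f ⟨p, hp⟩ : Fin 1782) : Nat)) h1
    rw [h2 0 (by norm_num), h2 1 (by norm_num), h2 2 (by norm_num)]
  have hgen : ∀ i, ∀ k ∈ gl, q (mt i k) = q i * q k := by
    intro i k hk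
    apply hVinj
    rw [map_mul, hVq, hVq, hVq]
    have h1 := (allL_eq_true _ _).1 (gen_ck i) k hk
    have h2 := heq (w := W (mt i k).val) (w' := W i.val ++ W k.val) (hWlt _) (fun g hg => by
      rcases List.mem_append.1 hg with hg | hg
      · exact hWlt i g hg
      · exact hWlt k g hg) h1
    rw [happ] at h2
    exact h2
  -- the centralizer
  let x : Fin 6 → Equiv.Perm (Fin 1782) := fun g => E (18 + g.val)
  have hxlt : ∀ g : Fin 6, 18 + g.val < 55 := fun g => by omega
  have hxH : ∀ g, x g ∈ H := fun g => (hE _ (hxlt g)).1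
  have hDt : DD.t0 = 1 := hC.hDt
  have hD := hC.hD
  have hLc : 3317760 * DD.L = Nat.card H := by rw [hC.hLc, hcard]
  have hL : 0 < DD.L := by
    by_contra h0
    have : DD.L = 0 := by omega
    rw [this, hcard] at hLc
    norm_num at hLc
  have hub : Nat.card (H ⊓ Subgroup.centralizer ({E 1} : Set (Equiv.Perm (Fin 1782))) :
      Subgroup (Equiv.Perm (Fin 1782))) ≤ 3317760 := by
    have := card_cent_le (hE _ hD.ht0).1 hLc hL (DD.e E) (fun i _ => hD.conj hE i) (hD.inj hE)
    rwa [hDt] at this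
  -- the conjugation by the generators
  have hcj0 : ∀ (g : Fin 6) (i : Fin 128), x g * qG i * (x g)⁻¹ = qG ⟨_, cj_lt g i⟩ := by
    intro g i
    have h1 := heq (w := (18 + g.val) :: W i.val) (w' := W (cjN g.val i.val) ++ [18 + g.val])
      (by
        intro a ha
        rcases List.mem_cons.1 ha with rfl | ha
        · exact hxlt g
        · exact hWlt i a ha)
      (by
        intro a ha
        rcases List.mem_append.1 ha with ha | ha
        · exact hWlt ⟨_, cj_lt g i⟩ a ha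
        · rw [List.mem_singleton] at ha
          rw [ha]
          exact hxlt g)
      (cj_ck g i)
    rw [hcons, happ, hsingle] at h1
    rw [mul_inv_eq_iff_eq_mul]
    exact h1
  have hcm : ∀ g : Fin 6, x g * E 1 = E 1 * x g := by
    intro g
    have h1 := hcj0 g 64
    have h2 : (⟨_, cj_lt g 64⟩ : Fin 128) = 64 := Fin.ext (cj_64 g)
    rw [h2, hq64, mul_inv_eq_iff_eq_mul] at h1
    exact h1
  have hle : famCl x ≤ H ⊓ Subgroup.centralizer ({E 1} : Set (Equiv.Perm (Fin 1782))) := by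
    apply (Subgroup.closure_le _).2
    rintro _ ⟨g, rfl⟩
    exact ⟨hxH g, Subgroup.mem_centralizer_singleton_iff.2 (hcm g)⟩
  have hge : 3317760 ≤ Nat.card (famCl x) := by
    have hlev : LevsOK 1782 hC.hn F E (famCl x) [] cs := by
      refine levsOK_of_chk (fun g hg => (hE g hg).2) cs [] (by simp) hC.hcs fun d hd g h1 h2 => ?_
      obtain ⟨h3, h4⟩ := cs_range d hd
      have h5 : g - 18 < 6 := by omega
      have h6 : E g = x ⟨g - 18, h5⟩ := by
        show E g = E (18 + (g - 18))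
        congr 1
        omega
      rw [h6]
      exact Subgroup.subset_closure ⟨_, rfl⟩
    have h7 := card_ge_of_levs hlev
    rwa [← hC.hc] at h7
  have hCeq : famCl x = H ⊓ Subgroup.centralizer ({E 1} : Set (Equiv.Perm (Fin 1782))) :=
    Subgroup.eq_of_le_of_card_ge hle (hub.trans hge)
  have hcardC0 : Nat.card (H ⊓ Subgroup.centralizer ({E 1} : Set (Equiv.Perm (Fin 1782))) :
      Subgroup (Equiv.Perm (Fin 1782))) = 3317760 := by
    apply le_antisymm hub
    rw [← hCeq]
    exact hge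
  have hzq : q 64 = e.symm ⟨E 1, ht1⟩ := by
    apply hVinj
    rw [hVq, hVpb, hq64]
  have hcC : Nat.card (Subgroup.centralizer ({q 64} : Set Cfsg.Spor.Suz)) = 3317760 := by
    obtain ⟨f⟩ := cent_transfer e ⟨E 1, ht1⟩ ⟨centEquiv H ht1⟩
    rw [hzq, Nat.card_congr f.toEquiv, hcardC0]
  have hP : ∀ y ∈ famCl x, ∀ i, ∃ j, y * qG i * y⁻¹ = qG j := by
    intro y hy
    induction hy using Subgroup.closure_induction with
    | mem y hy =>
      obtain ⟨g, rfl⟩ := hy
      exact fun i => ⟨_, hcj0 g i⟩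
    | one => exact fun i => ⟨i, by simp⟩
    | mul a b _ _ ha hb =>
      intro i
      obtain ⟨j, hj⟩ := hb i
      obtain ⟨k, hk⟩ := ha j
      refine ⟨k, ?_⟩
      rw [← hk, ← hj]
      group
    | inv a _ ha =>
      have hpow : ∀ k : Nat, ∀ i, ∃ j, a ^ k * qG i * (a ^ k)⁻¹ = qG j := by
        intro k
        induction k with
        | zero => exact fun i => ⟨i, by simp⟩
        | succ k ih =>
          intro i
          obtain ⟨j, hj⟩ := ih i
          obtain ⟨m, hm⟩ := ha j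
          refine ⟨m, ?_⟩
          rw [← hm, ← hj, pow_succ']
          group
      have hfo : IsOfFinOrder a := isOfFinOrder_of_finite a
      have hinv : a⁻¹ = a ^ (orderOf a - 1) := by
        rw [eq_comm, ← mul_eq_one_iff_eq_inv, ← pow_succ, Nat.sub_add_cancel hfo.orderOf_pos, pow_orderOf_eq_one]
      rw [hinv]
      exact hpow _
  have hconj : ∀ c, c * q 64 = q 64 * c → ∀ i, ∃ j, c * q i * c⁻¹ = q j := by
    intro c hc i
    have h1 : VV c ∈ famCl x := by
      rw [hCeq]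
      refine ⟨(e c).2, Subgroup.mem_centralizer_singleton_iff.2 ?_⟩
      have h2 := congrArg VV hc
      rw [map_mul, map_mul, hVq, hq64] at h2
      exact h2
    obtain ⟨j, hj⟩ := hP _ h1 i
    refine ⟨j, hVinj ?_⟩
    rw [map_mul, map_mul, map_inv, hVq, hVq]
    exact hj
  -- the two generators
  let s : Fin 2 → Cfsg.Spor.Suz := fun g => e.symm ⟨x (Fin.castLE (by norm_num) g), hxH _⟩
  have hVs : ∀ g, VV (s g) = x (Fin.castLE (by norm_num) g) := fun g => hVpb _ _
  have hs : ∀ g, s g * q 64 = q 64 * s g := by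
    intro g
    apply hVinj
    rw [map_mul, map_mul, hVs, hVq, hq64]
    exact hcm _
  have hcj : ∀ (g : Fin 2) (n : Fin 64), s g * q (Fin.ofNat 128 n.val) * (s g)⁻¹ = q (Fin.ofNat 128 (cjN g n)) := by
    intro g n
    apply hVinj
    rw [map_mul, map_mul, map_inv, hVs, hVq, hVq]
    have h1 := hcj0 (Fin.castLE (by norm_num) g) (Fin.castLE (by norm_num) n)
    have e1 : (Fin.ofNat 128 n.val : Fin 128) = Fin.castLE (by norm_num) n := by
      apply Fin.ext
      simp only [Fin.val_ofNat, Fin.val_castLE]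
      exact Nat.mod_eq_of_lt (by omega)
    have e2 : (Fin.ofNat 128 (cjN g n) : Fin 128) = ⟨_, cj_lt (Fin.castLE (by norm_num) g) (Fin.castLE (by norm_num) n)⟩ := by
      apply Fin.ext
      simp only [Fin.val_ofNat]
      exact Nat.mod_eq_of_lt (cj_lt (Fin.castLE (by norm_num) g) (Fin.castLE (by norm_num) n))
    rw [e1, e2]
    exact h1
  -- the conjugate
  have hg0H : wEl E w0 ∈ H := hmemw hw0lt
  have hg0 : e.symm ⟨wEl E w0, hg0H⟩ * q 64 * (e.symm ⟨wEl E w0, hg0H⟩)⁻¹ = q i0 := by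
    apply hVinj
    rw [map_mul, map_mul, map_inv, hVq, hVq, hVpb, hq64, mul_inv_eq_iff_eq_mul]
    have h1 := heq (w := w0 ++ [1]) (w' := W i0.val ++ w0)
      (by
        intro a ha
        rcases List.mem_append.1 ha with ha | ha
        · exact hw0lt a ha
        · rw [List.mem_singleton] at ha
          rw [ha]
          norm_num)
      (by
        intro a ha
        rcases List.mem_append.1 ha with ha | ha
        · exact hWlt i0 a ha
        · exact hw0lt a ha)
      g0_ck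
    rw [happ, happ, hsingle] at h1
    exact h1
  exact ⟨q 64, table_main hq0 hinj hgen hconj hcC s hs hcj _ hg0⟩

/-- The centralizer of an involution of the Suzuki group. -/
theorem suz_hyp : ∃ z : Cfsg.Spor.Suz, orderOf z = 2 ∧
    ∃ (Q : Subgroup (Subgroup.centralizer ({z} : Set Cfsg.Spor.Suz))) (_ : Q.Normal),
      Cfsg.generalizedFittingSubgroup (Subgroup.centralizer ({z} : Set Cfsg.Spor.Suz)) = Q ∧
      Cfsg.IsExtraspecial 2 Q ∧ Nat.card Q = 2 ^ 7 ∧
      Nonempty ((Subgroup.centralizer ({z} : Set Cfsg.Spor.Suz)) ⧸ Q ≃*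
        Cfsg.Omega (ZMod 2) (Cfsg.quadFormMinus 2 (ZMod 2) 1 1)) ∧
      ∃ g : Cfsg.Spor.Suz, (∃ hq : g * z * g⁻¹ ∈ Subgroup.centralizer ({z} : Set Cfsg.Spor.Suz),
        (⟨g * z * g⁻¹, hq⟩ : Subgroup.centralizer ({z} : Set Cfsg.Spor.Suz)) ∈ Q) ∧ g * z * g⁻¹ ≠ z := by
  obtain ⟨hs, hc⟩ := Cfsg.Agent.Lib.TC.D.SuzChain.Main.simple_card
  obtain ⟨H, ⟨e⟩, hH, hgen⟩ := exists_model Cfsg.Agent.Lib.TC.D.SuzG24.Ok.ok hs hc (c0 := 0) (i0 := 2) (by decide +kernel) (by decide +kernel) (by decide +kernel)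
  refine hyp_of_model e hH ?_
  intro g h1 h2
  have hg : g = 55 ∨ g = 56 ∨ g = 57 ∨ g = 58 ∨ g = 59 ∨ g = 60 ∨ g = 61 := by omega
  rcases hg with rfl | rfl | rfl | rfl | rfl | rfl | rfl
  · exact ck H hgen 0 (by decide) (by decide +kernel)
  · exact ck H hgen 1 (by decide) (by decide +kernel)
  · exact ck H hgen 2 (by decide) (by decide +kernel)
  · exact ck H hgen 3 (by decide) (by decide +kernel)
  · exact ck H hgen 4 (by decide) (by decide +kernel)
  · exact ck H hgen 5 (by decide) (by decide +kernel)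
  · exact ck H hgen 6 (by decide) (by decide +kernel)

end Cfsg.Agent.Lib.SuzLeech.Hyp
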