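import Cfsg.Agent.Lib.SuzLeech.Abs

/-!
# From a multiplication table to the structure of the centralizer
-/

set_option autoImplicit false
set_option maxRecDepth 100000
set_option linter.unusedSectionVars false
set_option linter.unusedVariables false

noncomputable section

namespace Cfsg.Agent.Lib.SuzLeech

open Cfsg Matrix Cfsg.Agent.Lib.SuzInv.Defs Cfsg.Agent.Lib.SuzInv.Rep
open Cfsg.Agent.Lib.PermComp.OutP Cfsg.Agent.Lib.Golay.OutAbs
open Cfsg.Agent.Lib.PermComp.Core (app Rep checkAll orderC nthN)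

/-! ### Vectors as numbers -/

/-- The bit of a coordinate. -/
def pos : Idx → ℕ
  | Sum.inl (Sum.inl i) => i
  | Sum.inl (Sum.inr i) => 2 + i
  | Sum.inr i => 4 + i

/-- A bit as an element of the field. -/
def bv (n k : ℕ) : ZMod 2 := if n.testBit k then 1 else 0

/-- A number as a vector. -/
def toV (n : ℕ) : V := fun x => bv n (pos x)

/-- A vector as a number. -/
def enc (v : V) : ℕ :=
  (v (Sum.inl (Sum.inl 0))).val + 2 * (v (Sum.inl (Sum.inl 1))).val +
  4 * (v (Sum.inl (Sum.inr 0))).val + 8 * (v (Sum.inl (Sum.inr 1))).val +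
  16 * (v (Sum.inr 0)).val + 32 * (v (Sum.inr 1)).val

theorem enc_toV : ∀ n : Fin 64, enc (toV n) = n := by decide +kernel

theorem card_V : Nat.card V = 64 := by
  simp [Nat.card_eq_fintype_card, ZMod.card]

theorem toV_bij : Function.Bijective (fun n : Fin 64 => toV n) := by
  apply Function.Injective.bijective_of_nat_card_le
  · intro a b h
    apply Fin.ext
    have h1 := enc_toV a
    have h2 := enc_toV b
    have h3 : toV a = toV b := h
    rw [← h1, ← h2, h3]
  · rw [card_V]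
    simp

/-- The vectors are numbered. -/
def toVe : Fin 64 ≃ V := Equiv.ofBijective _ toV_bij

theorem toVe_apply (n : Fin 64) : toVe n = toV n := rfl

theorem toV_xor (a b : ℕ) : toV (a ^^^ b) = toV a + toV b := by
  funext x
  show bv (a ^^^ b) (pos x) = bv a (pos x) + bv b (pos x)
  unfold bv
  rw [Nat.testBit_xor]
  cases a.testBit (pos x) <;> cases b.testBit (pos x) <;> decide

theorem toV_zero : toV 0 = 0 := by
  funext x
  simp [toV, bv]

/-! ### The table -/

/-- The generators of the index group. -/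
def gl : List (Fin 128) := [1, 2, 4, 8, 16, 32, 64]

/-- The lower part of an index. -/
def lo (i : Fin 128) : Fin 128 := Fin.ofNat 128 (i.val % 64)

theorem t_par : ∀ j : Fin 128, j ≠ 0 → (parF j).val < j.val ∧ genF j ∈ gl ∧ mt (parF j) (genF j) = j := by
  decide +kernel
theorem t_assoc : ∀ i j : Fin 128, j ≠ 0 → mt i (mt (parF j) (genF j)) = mt (mt i (parF j)) (genF j) := by
  decide +kernel
theorem t_idr : ∀ i : Fin 128, mt i 0 = i := by decide +kernel
theorem t_inv : ∀ i : Fin 128, mt (mt (mt i i) i) i = 0 := by decide +kernel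
theorem cj_lt2 : ∀ (g : Fin 2) (n : Fin 64), cjN g n < 128 := by decide +kernel
theorem t_xor : ∀ i j : Fin 128, (mt i j).val % 64 = (i.val % 64) ^^^ (j.val % 64) := by decide +kernel
theorem t_z : ∀ i : Fin 128, mt i 64 = mt 64 i := by decide +kernel
theorem t_dec : ∀ i : Fin 128, i = lo i ∨ i = mt (lo i) 64 := by decide +kernel
theorem t_sq : ∀ i : Fin 128, (qV (toV (i.val % 64)) = 0 ∧ mt i i = 0) ∨ (qV (toV (i.val % 64)) = 1 ∧ mt i i = 64) := by
  decide +kernel
theorem t_lo : ∀ i : Fin 64, (Fin.ofNat 128 i.val : Fin 128).val % 64 = i.val := by decide +kernel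
theorem t_zz : mt 64 64 = 0 := by decide +kernel
theorem t0 : mt 0 0 = 0 := by decide +kernel
theorem t1 : ∀ i j : Fin 128, mt i j = mt j i ∨ mt i j = mt 64 (mt j i) := by decide +kernel
theorem t2 : ∀ i : Fin 128, mt i i = 0 ∨ mt i i = 64 := by decide +kernel
theorem t3 : ∀ i : Fin 128, (∀ j, mt i j = mt j i) → i = 0 ∨ i = 64 := by decide +kernel
theorem t4 : ∀ j : Fin 128, mt 64 j = mt j 64 := by decide +kernel
theorem t6 : mt 1 4 ≠ mt 4 1 := by decide +kernel

/-- The codes of the action on the vectors. -/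
def rcY : Fin 2 → ℕ := fun g => nthN cY_T g

theorem cY_check : checkAll cY_n cY_w cY_mask cY_L cY_maskL cY_idc (List.ofFn rcY) cY_prog cY_levels = true := by
  decide +kernel
theorem cY_order : orderC cY_levels = 25920 := by decide +kernel
theorem rcY_ok : ∀ (g : Fin 2) (n : Fin 64), app 6 63 (rcY g) n = cjN g n % 64 := by decide +kernel

section Main

variable {G : Type*} [Group G] [Finite G] {q : Fin 128 → G}

theorem mul_all_aux (hq0 : q 0 = 1) (hgen : ∀ i, ∀ k ∈ gl, q (mt i k) = q i * q k) (n : ℕ) :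
    ∀ j : Fin 128, j.val = n → ∀ i, q (mt i j) = q i * q j := by
  induction n using Nat.strong_induction_on with
  | _ m ih =>
    intro j hjm i
    by_cases hj : j = 0
    · rw [hj, t_idr, hq0, mul_one]
    obtain ⟨h1, h2, h3⟩ := t_par j hj
    have e1 : q j = q (parF j) * q (genF j) := by
      conv_lhs => rw [← h3]
      exact hgen _ _ h2
    have e2 := t_assoc i j hj
    rw [h3] at e2
    rw [e2, hgen _ _ h2, ih (parF j).val (hjm ▸ h1) (parF j) rfl i, mul_assoc, ← e1]

theorem mul_all (hq0 : q 0 = 1) (hgen : ∀ i, ∀ k ∈ gl, q (mt i k) = q i * q k) (i j : Fin 128) :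
    q (mt i j) = q i * q j :=
  mul_all_aux hq0 hgen j.val j rfl i

/-- The subgroup of the elements of the table. -/
def QQ (hq0 : q 0 = 1) (hgen : ∀ i, ∀ k ∈ gl, q (mt i k) = q i * q k) : Subgroup G where
  carrier := Set.range q
  mul_mem' := by
    rintro _ _ ⟨i, rfl⟩ ⟨j, rfl⟩
    exact ⟨mt i j, mul_all hq0 hgen i j⟩
  one_mem' := ⟨0, hq0⟩
  inv_mem' := by
    rintro _ ⟨i, rfl⟩
    refine ⟨mt (mt i i) i, ?_⟩
    apply eq_inv_of_mul_eq_one_left
    rw [← mul_all hq0 hgen, t_inv, hq0]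

theorem mem_QQ {hq0 : q 0 = 1} {hgen : ∀ i, ∀ k ∈ gl, q (mt i k) = q i * q k} {x : G} :
    x ∈ QQ hq0 hgen ↔ ∃ i, q i = x := Iff.rfl

/-- The projection. -/
def piQ (q : Fin 128 → G) (x : G) : V := toV ((Function.invFun q x).val % 64)

theorem piQ_q (hinj : Function.Injective q) (i : Fin 128) : piQ q (q i) = toV (i.val % 64) := by
  unfold piQ
  rw [Function.leftInverse_invFun hinj i]

/-- The section. -/
def secQ (q : Fin 128 → G) (v : V) : G := q (Fin.ofNat 128 (toVe.symm v).val)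

/-- The module. -/
def theMod (hq0 : q 0 = 1) (hinj : Function.Injective q) (hgen : ∀ i, ∀ k ∈ gl, q (mt i k) = q i * q k)
    (hconj : ∀ c, c * q 64 = q 64 * c → ∀ i, ∃ j, c * q i * c⁻¹ = q j) :
    QMod (q 64) (QQ hq0 hgen) where
  pi := piQ q
  sec := secQ q
  sec_mem v := mem_QQ.2 ⟨_, rfl⟩
  pi_sec v := by
    unfold secQ
    rw [piQ_q hinj, t_lo]
    exact toVe.apply_symm_apply v
  pi_mul := by
    intro x hx y hy
    obtain ⟨i, rfl⟩ := mem_QQ.1 hx
    obtain ⟨j, rfl⟩ := mem_QQ.1 hy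
    rw [← mul_all hq0 hgen, piQ_q hinj, piQ_q hinj, piQ_q hinj, t_xor, toV_xor]
  pi_z := by
    rw [piQ_q hinj]
    exact toV_zero
  decomp := by
    intro x hx
    obtain ⟨i, rfl⟩ := mem_QQ.1 hx
    rw [piQ_q hinj]
    have h1 : toVe.symm (toV (i.val % 64)) = ⟨i.val % 64, Nat.mod_lt _ (by norm_num)⟩ := by
      rw [Equiv.symm_apply_eq]
      rfl
    unfold secQ
    rw [h1]
    rcases t_dec i with h | h
    · left
      exact congrArg q h
    · right
      have := congrArg q h
      rw [mul_all hq0 hgen] at this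
      exact this
  sq := by
    intro x hx
    obtain ⟨i, rfl⟩ := mem_QQ.1 hx
    rw [← mul_all hq0 hgen, piQ_q hinj]
    rcases t_sq i with ⟨h1, h2⟩ | ⟨h1, h2⟩
    · rw [h1, h2, pw_zero, hq0]
    · rw [h1, h2, pw_one]
  zQ := mem_QQ.2 ⟨64, rfl⟩
  z1 := by
    intro h
    have : (64 : Fin 128) = 0 := hinj (h.trans hq0.symm)
    exact absurd this (by decide)
  zz := by
    rw [← mul_all hq0 hgen, t_zz, hq0]
  Qc := by
    intro x hx
    obtain ⟨i, rfl⟩ := mem_QQ.1 hx
    rw [← mul_all hq0 hgen, ← mul_all hq0 hgen, t_z]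
  Qn := by
    intro c hc x hx
    obtain ⟨i, rfl⟩ := mem_QQ.1 hx
    obtain ⟨j, hj⟩ := hconj c hc i
    exact mem_QQ.2 ⟨j, hj.symm⟩

theorem table_main (hq0 : q 0 = 1) (hinj : Function.Injective q)
    (hgen : ∀ i, ∀ k ∈ gl, q (mt i k) = q i * q k)
    (hconj : ∀ c, c * q 64 = q 64 * c → ∀ i, ∃ j, c * q i * c⁻¹ = q j)
    (hcC : Nat.card (Subgroup.centralizer ({q 64} : Set G)) = 3317760)
    (s : Fin 2 → G) (hs : ∀ g, s g * q 64 = q 64 * s g)
    (hcj : ∀ (g : Fin 2) (n : Fin 64), s g * q (Fin.ofNat 128 n.val) * (s g)⁻¹ = q (Fin.ofNat 128 (cjN g n)))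
    (g0 : G) (hg0 : g0 * q 64 * g0⁻¹ = q i0) :
    orderOf (q 64) = 2 ∧ ∃ (Q : Subgroup (Subgroup.centralizer ({q 64} : Set G))) (_ : Q.Normal),
      Cfsg.generalizedFittingSubgroup (Subgroup.centralizer ({q 64} : Set G)) = Q ∧
      Cfsg.IsExtraspecial 2 Q ∧ Nat.card Q = 2 ^ 7 ∧
      Nonempty ((Subgroup.centralizer ({q 64} : Set G)) ⧸ Q ≃*
        Cfsg.Omega (ZMod 2) (Cfsg.quadFormMinus 2 (ZMod 2) 1 1)) ∧
      ∃ g : G, (∃ hq : g * q 64 * g⁻¹ ∈ Subgroup.centralizer ({q 64} : Set G),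
        (⟨g * q 64 * g⁻¹, hq⟩ : Subgroup.centralizer ({q 64} : Set G)) ∈ Q) ∧ g * q 64 * g⁻¹ ≠ q 64 := by
  let M := theMod hq0 hinj hgen hconj
  let Q' := QQ hq0 hgen
  let qq : Fin 128 → Q' := fun i => ⟨q i, ⟨i, rfl⟩⟩
  have hT : MT qq mt := by
    constructor
    · constructor
      · intro a b h
        exact hinj (congrArg Subtype.val h)
      · rintro ⟨_, ⟨i, rfl⟩⟩
        exact ⟨i, rfl⟩
    · intro i j
      exact Subtype.ext (mul_all hq0 hgen i j)
  have hex : IsExtraspecial 2 Q' :=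
    hT.isExtraspecial (a := 7) (by norm_num) 0 64 t0 (by decide) t1 t2 t3 t4 1 4 t6
  have hcQ : Nat.card Q' = 128 := hT.card
  -- the image
  have hY : 25920 ≤ Nat.card M.psi.range := by
    let c : Fin 2 → QMod.CC (q 64) := fun g => ⟨s g, by
      rw [Subgroup.mem_centralizer_iff]
      rintro _ rfl
      exact (hs g).symm⟩
    let a : Fin 2 → Equiv.Perm V := fun g => Th (M.psi (c g))
    have hra : ∀ g, Rep 6 63 toVe.symm (rcY g) (a g) := by
      intro g v
      obtain ⟨n, rfl⟩ := toVe.surjective v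
      rw [Equiv.symm_apply_apply]
      have h1 : a g (toVe n) = M.A (s g) (toVe n) := M.psi_mulVec (c g) (toVe n)
      have h2 : M.A (s g) (toVe n) = toV (cjN g n % 64) := by
        show M.pi (s g * M.sec (toVe n) * (s g)⁻¹) = _
        show piQ q (s g * q (Fin.ofNat 128 (toVe.symm (toVe n)).val) * (s g)⁻¹) = _
        rw [Equiv.symm_apply_apply, hcj, piQ_q hinj, Fin.val_ofNat, Nat.mod_eq_of_lt (cj_lt2 g n)]
      rw [h1, h2, rcY_ok]
      have h4 : cjN g n % 64 < 64 := Nat.mod_lt _ (by norm_num)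
      have h5 : toVe.symm (toV (cjN g n % 64)) = ⟨cjN g n % 64, h4⟩ := by
        rw [Equiv.symm_apply_eq]
        rfl
      rw [h5]
    have hcard := card_famCl_of_check (e := toVe.symm) a rcY hra cY_check
    rw [cY_order] at hcard
    have hle : famCl a ≤ M.psi.range.map Th := by
      apply (Subgroup.closure_le _).2
      rintro _ ⟨g, rfl⟩
      exact ⟨M.psi (c g), ⟨c g, rfl⟩, rfl⟩
    have h6 := Subgroup.card_le_of_le hle
    rw [hcard, Subgroup.card_map_of_injective Th_injective] at h6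
    exact h6
  have hne : q i0 ≠ q 64 := fun h => absurd (hinj h) (by decide)
  exact main_abs M hcQ hex hcC hY g0 (by rw [hg0]; exact mem_QQ.2 ⟨i0, rfl⟩) (by rw [hg0]; exact hne)

end Main

end Cfsg.Agent.Lib.SuzLeech

end
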